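/-
S0518 (helper12's package cut): shared elementary lemmas for the packages Xsq, Cw, NoFusS.
-/
import Mathlib
import Cfsg.Agent.Lib.Helper12.KS.Defs

set_option autoImplicit false

namespace Cfsg.Agent.Lib.Helper23.KS

open Cfsg Cfsg.Agent.Lib.Helper12.KS

universe u

variable {G : Type u} [Group G] [Finite G]

/-- An element of a 2-group `S ≥ T` outside `T` carries side 1 to side 2 and side 2 to side 1. -/
theorem swap_maps (hMap : PkgMap.{u}) (hA : PkgSylA.{u}) (hC : PkgSylC.{u})
    {P₁ P₂ T Q₁ Q₂ W₁ W₂ : Subgroup G} {c₁ c₂ : G}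
    (h : BCfg P₁ P₂ T Q₁ Q₂ W₁ W₂ c₁ c₂) (S : Subgroup G) (hS : IsPGroup 2 ↥S) (hTS : T ≤ S)
    (x : G) (hx : x ∈ S) (hxT : x ∉ T) :
    MapsTo P₁ P₂ Q₁ Q₂ W₁ W₂ c₁ c₂ x ∧ MapsTo P₂ P₁ Q₂ Q₁ W₂ W₁ c₂ c₁ x := by
  have hn : ∀ t ∈ T, x * t * x⁻¹ ∈ T := fun t ht => hC h S hS hTS x hx t ht
  obtain ⟨h12, h21⟩ := hA h S hS hTS x hx hxT hn
  exact ⟨hMap h x h12, hMap h.symm x h21⟩

/-- A subgroup with more than two elements has an element different from two given ones. -/
theorem exists_mem_ne_ne (H : Subgroup G) (hc : 2 < Nat.card ↥H) (a b : G) :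
    ∃ s ∈ H, s ≠ a ∧ s ≠ b := by
  by_contra hcon
  push_neg at hcon
  have hsub : (H : Set G) ⊆ {a, b} := fun s hs => by
    by_cases h1 : s = a
    · exact Or.inl h1
    · exact Or.inr (hcon s hs h1)
  have h1 : Nat.card ↥(H : Set G) ≤ Nat.card ↥({a, b} : Set G) :=
    Nat.card_mono (Set.toFinite _) hsub
  have h2 : Nat.card ↥({a, b} : Set G) ≤ 2 := by
    rw [Nat.card_coe_set_eq]
    have := Set.ncard_insert_le a ({b} : Set G)
    rw [Set.ncard_singleton] at this
    exact this
  have h3 : Nat.card ↥H ≤ 2 := le_trans h1 h2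
  omega

/-- In a group whose squares are `1` or the central involution `w`: an involution `s` not
commuting with an element `u` of square `w` is sent to `s * w` by conjugation with `u`. -/
theorem conj_eq_mul_w {T : Subgroup G} {w s u : G}
    (sq : ∀ t ∈ T, t * t = 1 ∨ t * t = w) (hw2 : w * w = 1)
    (hs : s ∈ T) (hu : u ∈ T) (hss : s * s = 1) (huu : u * u = w) (hne : u * s ≠ s * u) :
    u * s * u⁻¹ = s * w := by
  have hsinv : s⁻¹ = s := inv_eq_of_mul_eq_one_left hss
  have hwinv : w⁻¹ = w := inv_eq_of_mul_eq_one_left hw2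
  have h1 : s * u * (s * u) = 1 := by
    rcases sq (s * u) (T.mul_mem hs hu) with h | h
    · exact h
    · exfalso; apply hne
      have h2 : s * u * s * u = u * u := by
        rw [huu, ← h]; group
      have h3 : s * u * s = u := mul_right_cancel h2
      calc u * s = (s * u * s) * s := by rw [h3]
        _ = s * u * (s * s) := by group
        _ = s * u := by rw [hss, mul_one]
  have k1 : u * s * u = s := by
    have h2 : s * (u * s * u) = 1 := by rw [← h1]; group
    have h3 : u * s * u = s⁻¹ := eq_inv_of_mul_eq_one_right h2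
    rw [h3, hsinv]
  calc u * s * u⁻¹ = (u * s * u) * (u * u)⁻¹ := by group
    _ = s * w := by rw [k1, huu, hwinv]

/-- Elements of a group of exponent 2 commute. -/
theorem comm_of_sq_one {a b : G} (ha : a * a = 1) (hb : b * b = 1) (hab : a * b * (a * b) = 1) :
    a * b = b * a := by
  have h1 : (a * b)⁻¹ = a * b := inv_eq_of_mul_eq_one_left hab
  have ha' : a⁻¹ = a := inv_eq_of_mul_eq_one_left ha
  have hb' : b⁻¹ = b := inv_eq_of_mul_eq_one_left hb
  rw [mul_inv_rev, ha', hb'] at h1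
  exact h1.symm

/-- An element conjugating a (finite) subgroup into itself normalizes it. -/
theorem mem_normalizer_of_conj_mem (H : Subgroup G) (g : G) (hg : ∀ a ∈ H, g * a * g⁻¹ ∈ H) :
    g ∈ Subgroup.normalizer (H : Set G) := by
  rw [Subgroup.mem_normalizer_iff]
  intro a
  constructor
  · exact hg a
  · intro ha
    have hinj : Function.Injective (fun b : ↥H => (⟨g * b.1 * g⁻¹, hg b.1 b.2⟩ : ↥H)) := by
      intro b b' hbb
      have h1 : g * b.1 * g⁻¹ = g * b'.1 * g⁻¹ := congrArg Subtype.val hbb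
      exact Subtype.ext (mul_left_cancel (mul_right_cancel h1))
    have hsurj := Finite.surjective_of_injective hinj
    obtain ⟨b, hb⟩ := hsurj ⟨g * a * g⁻¹, ha⟩
    have h1 : g * b.1 * g⁻¹ = g * a * g⁻¹ := congrArg Subtype.val hb
    have h2 : b.1 = a := mul_left_cancel (mul_right_cancel h1)
    rw [← h2]; exact b.2

/-- The conjugate of a subgroup of order 8 and exponent 2 has order 8 and exponent 2. -/
theorem conj_e8 (Q : Subgroup G) (g : G) (hQc : Nat.card ↥Q = 8) (hQe : ∀ a ∈ Q, a * a = 1) :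
    Nat.card ↥(Q.map (MulAut.conj g).toMonoidHom) = 8 ∧
      ∀ a ∈ Q.map (MulAut.conj g).toMonoidHom, a * a = 1 := by
  constructor
  · rw [Subgroup.card_map_of_injective (MulAut.conj g).injective]; exact hQc
  · rintro _ ⟨q, hq, rfl⟩
    show g * q * g⁻¹ * (g * q * g⁻¹) = 1
    have h1 : g * q * g⁻¹ * (g * q * g⁻¹) = g * (q * q) * g⁻¹ := by group
    rw [h1, hQe q hq]; group

end Cfsg.Agent.Lib.Helper23.KS
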