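/-
S0518, package [Cw]: if `T` is not a Sylow 2-subgroup then the centralizer of `w` lies in the
Sylow 2-subgroup `S ≥ T`.
-/
import Mathlib
import Cfsg.Agent.Lib.Helper12.KS.Defs
import Cfsg.Agent.Lib.Helper23.KS.Basic

set_option autoImplicit false

namespace Cfsg.Agent.Lib.Helper23.KS

open Cfsg Cfsg.Agent.Lib.Helper12.KS

universe u

theorem pkgCw (hO1 : PkgO1.{u}) (hO3 : PkgO3.{u}) (hNrm : PkgNrm.{u}) (hT : PkgT.{u})
    (hInv : PkgInv.{u}) (hMap : PkgMap.{u}) (hSP : PkgSP.{u}) (hA : PkgSylA.{u})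
    (hB : PkgSylB.{u}) (hC : PkgSylC.{u}) : PkgCw.{u} := by
  intro G _ _ P₁ P₂ T Q₁ Q₂ W₁ W₂ c₁ c₂ h hZ S hTS hne w hw g hg
  have hS2 : IsPGroup 2 ↥(S : Subgroup G) := S.isPGroup'
  obtain ⟨x, hxS, hxT⟩ : ∃ x ∈ (S : Subgroup G), x ∉ T := by
    by_contra hcon
    push_neg at hcon
    exact hne (le_antisymm hTS hcon)
  obtain ⟨m12, m21⟩ := swap_maps hMap hA hC h S hS2 hTS x hxS hxT
  have b1 := hO1 h.side₁
  have b2 := hO1 h.side₂
  obtain ⟨-, -, -, hcne⟩ := hT h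
  obtain ⟨hN1Q, -, -⟩ := hNrm h.max₁ h.side₁
  have inv := hInv h
  have hSP1 : (S : Subgroup G) ⊓ P₁ = T := hSP h S hS2 hTS
  -- Step 1: `g` normalizes `S`
  have hgN : g ∈ Subgroup.normalizer ((S : Subgroup G) : Set G) := by
    apply hZ S
    rw [Subgroup.mem_centralizer_iff]
    rintro z ⟨hzS, -, hzc⟩
    have hzP : z ∈ P₁ := by
      rw [← hN1Q]
      apply mem_normalizer_of_conj_mem
      intro q hq
      have h1 : q * z = z * q := hzc q (hTS (b1.Q_le_T hq))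
      have h2 : z * q * z⁻¹ = q := by rw [← h1]; group
      rw [h2]; exact hq
    have hzT : z ∈ T := by rw [← hSP1]; exact ⟨hzS, hzP⟩
    have hzcT : ∀ t ∈ T, t * z = z * t := fun t ht => hzc t (hTS ht)
    rcases hw.center z hzT hzcT with h1 | h1 | h1 | h1
    · rw [h1, one_mul, mul_one]
    · rw [h1]; exact hg.symm
    · exfalso
      have h2 : x * z = z * x := hzc x hxS
      rw [h1] at h2
      have h3 : x * c₁ * x⁻¹ = c₁ := by rw [h2]; group
      rw [m12.c] at h3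
      exact hcne h3.symm
    · exfalso
      have h2 : x * z = z * x := hzc x hxS
      rw [h1] at h2
      have h3 : x * c₂ * x⁻¹ = c₂ := by rw [h2]; group
      rw [m21.c] at h3
      exact hcne h3
  have hgS : ∀ a ∈ (S : Subgroup G), g * a * g⁻¹ ∈ (S : Subgroup G) := fun a ha =>
    (Subgroup.mem_normalizer_iff.mp hgN a).mp ha
  -- Step 2: `g` permutes `Q₁`, `Q₂` and normalizes `T`
  have key : ∀ Q : Subgroup G, Q ≤ T → Nat.card ↥Q = 8 → (∀ a ∈ Q, a * a = 1) →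
      Q.map (MulAut.conj g).toMonoidHom ≤ T ∧
      (Q.map (MulAut.conj g).toMonoidHom = Q₁ ∨ Q.map (MulAut.conj g).toMonoidHom = Q₂) := by
    intro Q hQT hQc hQe
    have hES : Q.map (MulAut.conj g).toMonoidHom ≤ (S : Subgroup G) := by
      rintro _ ⟨q, hq, rfl⟩
      exact hgS q (hTS (hQT hq))
    obtain ⟨hcard, hexp⟩ := conj_e8 Q g hQc hQe
    have hET := hB h S hS2 hTS _ hES (fun a ha t ht => hC h S hS2 hTS a (hES ha) t ht) hcard hexp
    exact ⟨hET, inv.e8 _ hET hcard hexp⟩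
  obtain ⟨hE1T, hE1⟩ := key Q₁ b1.Q_le_T b1.card_Q b1.Q_sq
  obtain ⟨hE2T, -⟩ := key Q₂ b2.Q_le_T b2.card_Q b2.Q_sq
  have hgT : ∀ t ∈ T, g * t * g⁻¹ ∈ T := by
    intro t ht
    have h1 : T.map (MulAut.conj g).toMonoidHom ≤ T := by
      have h2 : T.map (MulAut.conj g).toMonoidHom =
          Q₁.map (MulAut.conj g).toMonoidHom ⊔ Q₂.map (MulAut.conj g).toMonoidHom := by
        rw [← Subgroup.map_sup, inv.sup]
      rw [h2]; exact sup_le hE1T hE2T
    exact h1 (Subgroup.mem_map_of_mem _ ht)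
  have nT := (hO3 h.side₁).nT
  rcases hE1 with hE | hE
  · have hgP : g ∈ P₁ := by
      rw [← hN1Q]
      apply mem_normalizer_of_conj_mem
      intro q hq
      have h1 : g * q * g⁻¹ ∈ Q₁.map (MulAut.conj g).toMonoidHom := Subgroup.mem_map_of_mem _ hq
      rwa [hE] at h1
    exact hTS (nT g hgP hgT)
  · have hxg : x * g ∈ P₁ := by
      rw [← hN1Q]
      apply mem_normalizer_of_conj_mem
      intro q hq
      have h1 : g * q * g⁻¹ ∈ Q₁.map (MulAut.conj g).toMonoidHom := Subgroup.mem_map_of_mem _ hq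
      rw [hE] at h1
      have h2 := m21.Q _ h1
      have h3 : x * g * q * (x * g)⁻¹ = x * (g * q * g⁻¹) * x⁻¹ := by group
      rw [h3]; exact h2
    have hxgT : x * g ∈ T := by
      apply nT _ hxg
      intro t ht
      have h1 := hC h S hS2 hTS x hxS _ (hgT t ht)
      have h3 : x * g * t * (x * g)⁻¹ = x * (g * t * g⁻¹) * x⁻¹ := by group
      rw [h3]; exact h1
    have h4 : g = x⁻¹ * (x * g) := by group
    rw [h4]
    exact (S : Subgroup G).mul_mem ((S : Subgroup G).inv_mem hxS) (hTS hxgT)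

end Cfsg.Agent.Lib.Helper23.KS
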