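/-
S0518, package [NoFusS]: conjugates of `c₁` inside a Sylow 2-subgroup `S ≥ T` lie in `T`.
-/
import Mathlib
import Cfsg.Agent.Lib.Helper12.KS.Defs
import Cfsg.Agent.Lib.Helper23.KS.Basic

set_option autoImplicit false

namespace Cfsg.Agent.Lib.Helper23.KS

open Cfsg Cfsg.Agent.Lib.Helper12.KS

universe u

theorem pkgNoFusS (hO1 : PkgO1.{u}) (hO4 : PkgO4.{u}) (hNrm : PkgNrm.{u}) (hW : PkgW.{u})
    (hMap : PkgMap.{u}) (hA : PkgSylA.{u}) (hB : PkgSylB.{u}) (hC : PkgSylC.{u})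
    (hCw : PkgCw.{u}) : PkgNoFusS.{u} := by
  intro G _ _ P₁ P₂ T Q₁ Q₂ W₁ W₂ c₁ c₂ h hZ S hTS g hgS
  by_contra hgT
  have hS2 : IsPGroup 2 ↥(S : Subgroup G) := S.isPGroup'
  obtain ⟨v, hv_def⟩ : ∃ v, v = g * c₁ * g⁻¹ := ⟨_, rfl⟩
  rw [← hv_def] at hgS hgT
  have hne : T ≠ (S : Subgroup G) := fun heq => hgT (by rw [heq]; exact hgS)
  obtain ⟨w, hw⟩ := hW h
  have b1 := hO1 h.side₁
  obtain ⟨-, -, hC1⟩ := hNrm h.max₁ h.side₁
  obtain ⟨m12, m21⟩ := swap_maps hMap hA hC h S hS2 hTS v hgS hgT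
  have hvw : v * w * v⁻¹ = w := by
    rcases hw.inter_W _ (m21.W w hw.w_mem₂) (m12.W w hw.w_mem₁) with h1 | h1
    · exfalso; exact hw.w_ne (conj_eq_one_iff.mp h1)
    · exact h1
  have hvw' : v * w = w * v := by
    calc v * w = (v * w * v⁻¹) * v := by group
      _ = w * v := by rw [hvw]
  have hu_cent : g⁻¹ * w * g ∈ P₁ := by
    rw [← hC1, Subgroup.mem_centralizer_iff]
    intro c hc
    rw [Set.mem_singleton_iff] at hc
    rw [hc]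
    rw [hv_def] at hvw'
    calc c₁ * (g⁻¹ * w * g) = g⁻¹ * (g * c₁ * g⁻¹ * w) * g := by group
      _ = g⁻¹ * (w * (g * c₁ * g⁻¹)) * g := by rw [hvw']
      _ = g⁻¹ * w * g * c₁ := by group
  have hu_ne1 : g⁻¹ * w * g ≠ 1 := fun h1 => hw.w_ne (by
    have h2 : g⁻¹ * w * g⁻¹⁻¹ = 1 := by rwa [inv_inv]
    exact conj_eq_one_iff.mp h2)
  have hu_sq : g⁻¹ * w * g * (g⁻¹ * w * g) = 1 := by
    have h1 : g⁻¹ * w * g * (g⁻¹ * w * g) = g⁻¹ * (w * w) * g := by group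
    rw [h1, hw.w_sq]; group
  have hu_nec : g⁻¹ * w * g ≠ c₁ := by
    intro h1
    apply hgT
    have h2 : v = w := by rw [hv_def, ← h1]; group
    rw [h2]; exact b1.Q_le_T (b1.W_le_Q hw.w_mem₁)
  obtain ⟨E, -, hEc, hEe, hc1E, huE⟩ := hO4 h.side₁ _ hu_cent hu_sq hu_ne1 hu_nec
  obtain ⟨E', hE'_def⟩ : ∃ E', E' = E.map (MulAut.conj g).toMonoidHom := ⟨_, rfl⟩
  have hvE' : v ∈ E' := by
    rw [hE'_def, hv_def]; exact Subgroup.mem_map_of_mem _ hc1E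
  have hwE' : w ∈ E' := by
    have h1 : g * (g⁻¹ * w * g) * g⁻¹ ∈ E.map (MulAut.conj g).toMonoidHom :=
      Subgroup.mem_map_of_mem _ huE
    have h2 : g * (g⁻¹ * w * g) * g⁻¹ = w := by group
    rw [h2] at h1
    rw [hE'_def]; exact h1
  obtain ⟨hcard, hexp⟩ : Nat.card ↥E' = 8 ∧ ∀ a ∈ E', a * a = 1 := by
    rw [hE'_def]; exact conj_e8 E g hEc hEe
  have hE'S : E' ≤ (S : Subgroup G) := by
    intro a ha
    apply hCw h hZ S hTS hne w hw a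
    exact comm_of_sq_one (hexp a ha) (hexp w hwE') (hexp _ (E'.mul_mem ha hwE'))
  have hE'T : E' ≤ T :=
    hB h S hS2 hTS E' hE'S (fun a ha t ht => hC h S hS2 hTS a (hE'S ha) t ht) hcard hexp
  exact hgT (hE'T hvE')

end Cfsg.Agent.Lib.Helper23.KS
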