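/-
S0518, package [Xsq]: squares of elements of a 2-group `S ≥ T` outside `T` lie in `W₁ ⊔ W₂`.
-/
import Mathlib
import Cfsg.Agent.Lib.Helper12.KS.Defs
import Cfsg.Agent.Lib.Helper23.KS.Basic

set_option autoImplicit false

namespace Cfsg.Agent.Lib.Helper23.KS

open Cfsg Cfsg.Agent.Lib.Helper12.KS

universe u

theorem pkgXsq (hO1 : PkgO1.{u}) (hO7 : PkgO7.{u}) (hW : PkgW.{u}) (hInv : PkgInv.{u})
    (hT0 : PkgT0.{u}) (hMap : PkgMap.{u}) (hA : PkgSylA.{u}) (hC : PkgSylC.{u})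
    (hD : PkgSylD.{u}) : PkgXsq.{u} := by
  intro G _ _ P₁ P₂ T Q₁ Q₂ W₁ W₂ c₁ c₂ h S hS hTS x hx hxT
  obtain ⟨m12, m21⟩ := swap_maps hMap hA hC h S hS hTS x hx hxT
  obtain ⟨w, hw⟩ := hW h
  have b1 := hO1 h.side₁
  have b2 := hO1 h.side₂
  have cen1 := hO7 h.side₁
  have cen2 := hO7 h.side₂
  have inv := hInv h
  have t0 := hT0 h
  have hxx : x * x ∈ T := by
    rcases hD h S hS hTS x hx hxT (x * x) (S.mul_mem hx hx) with h1 | h1
    · exact h1
    · exfalso; apply hxT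
      have h2 : x * x * x⁻¹ = x := by group
      rwa [h2] at h1
  by_contra hcon
  have hu0 : x * x * c₁ ∈ W₁ ⊔ W₂ := (t0.cover _ hxx).resolve_left hcon
  obtain ⟨u, hu_def⟩ : ∃ u, u = x * x * c₁ := ⟨_, rfl⟩
  rw [← hu_def] at hu0
  have huT : u ∈ T := t0.le hu0
  have hc1T : c₁ ∈ T := b1.Q_le_T b1.c_mem_Q
  have hc1inv : c₁⁻¹ = c₁ := inv_eq_of_mul_eq_one_left b1.c_sq
  have hwinv : w⁻¹ = w := inv_eq_of_mul_eq_one_left hw.w_sq
  have hcw : c₁ * w = w * c₁ := hw.w_cent c₁ hc1T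
  have e1 : x * x = u * c₁ := by rw [hu_def, mul_assoc (x * x) c₁ c₁, b1.c_sq, mul_one]
  have hxu : x * u * x⁻¹ = u * w := by
    have e2 : x * c₁ * x⁻¹ = c₁ * w := by rw [m12.c, hw.c₂_eq]
    have e3 : x * (u * c₁) * x⁻¹ = u * c₁ := by rw [← e1]; group
    have e4 : x * (u * c₁) * x⁻¹ = (x * u * x⁻¹) * (x * c₁ * x⁻¹) := by group
    rw [e4, e2] at e3
    have e5 : x * u * x⁻¹ = u * c₁ * (c₁ * w)⁻¹ := by rw [← e3]; group
    rw [e5]
    calc u * c₁ * (c₁ * w)⁻¹ = u * c₁ * (w⁻¹ * c₁⁻¹) := by rw [mul_inv_rev]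
      _ = u * c₁ * (w * c₁) := by rw [hc1inv, hwinv]
      _ = u * c₁ * (c₁ * w) := by rw [hcw]
      _ = u * (c₁ * c₁) * w := by group
      _ = u * w := by rw [b1.c_sq, mul_one]
  have hxw : x * w * x⁻¹ = w := by
    rcases hw.inter_W _ (m21.W w hw.w_mem₂) (m12.W w hw.w_mem₁) with h1 | h1
    · exfalso; exact hw.w_ne (conj_eq_one_iff.mp h1)
    · exact h1
  -- a common contradiction: `u ∈ W₁ ⊓ W₂`-type situations
  have hbad : u * w = 1 ∨ u * w = w → False := by
    rintro (h3 | h3)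
    · rw [h3] at hxu
      have hu_one : u = 1 := conj_eq_one_iff.mp hxu
      rw [hu_one, one_mul] at h3
      exact hw.w_ne h3
    · have hu_one : u = 1 := by
        have h4 : u * w = 1 * w := by rw [h3, one_mul]
        exact mul_right_cancel h4
      rw [hu_one, mul_one, mul_inv_cancel, one_mul] at hxu
      exact hw.w_ne hxu.symm
  rcases hw.sq u huT with huu | huu
  · -- `u` is an involution or trivial
    rcases inv.invol u huT huu with hq | hq
    · have hu1 : u ∈ W₁ := t0.inter_Q₁ u hu0 hq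
      have h2 : u * w ∈ W₂ := by rw [← hxu]; exact m12.W u hu1
      have h1 : u * w ∈ W₁ := W₁.mul_mem hu1 hw.w_mem₁
      exact hbad (hw.inter_W _ h1 h2)
    · have hu2 : u ∈ W₂ := t0.inter_Q₂ u hu0 hq
      have h1 : u * w ∈ W₁ := by rw [← hxu]; exact m21.W u hu2
      have h2 : u * w ∈ W₂ := W₂.mul_mem hu2 hw.w_mem₂
      exact hbad (hw.inter_W _ h1 h2)
  · -- `u` has order 4
    obtain ⟨s, hs, hs1, hsw⟩ := exists_mem_ne_ne W₁ (by rw [b1.card_W]; norm_num) 1 w
    have hsQ : s ∈ Q₁ := b1.W_le_Q hs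
    have hsT : s ∈ T := b1.Q_le_T hsQ
    have hss : s * s = 1 := b1.Q_sq s hsQ
    have hsinv : s⁻¹ = s := inv_eq_of_mul_eq_one_left hss
    have hc2W1 : c₁ * w ∉ W₁ := fun hmem => b1.c_not_W (by
      have h1 := W₁.mul_mem hmem hw.w_mem₁
      rwa [mul_assoc, hw.w_sq, mul_one] at h1)
    have hsnc : ∃ t ∈ T, t * s ≠ s * t := by
      by_contra hcon2
      push_neg at hcon2
      rcases hw.center s hsT hcon2 with h1 | h1 | h1 | h1
      · exact hs1 h1
      · exact hsw h1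
      · exact b1.c_not_W (h1 ▸ hs)
      · exact hc2W1 (by rw [← hw.c₂_eq, ← h1]; exact hs)
    have hcs := cen1 s hsQ hsnc
    have huQ1 : u ∉ Q₁ := fun hmem => hw.w_ne (by rw [← huu]; exact b1.Q_sq u hmem)
    have huQ2 : u ∉ Q₂ := fun hmem => hw.w_ne (by rw [← huu]; exact b2.Q_sq u hmem)
    have hus : u * s ≠ s * u := fun hcomm => huQ1 (hcs u huT hcomm)
    have k2 : u * s * u⁻¹ = s * w := conj_eq_mul_w hw.sq hw.w_sq hsT huT hss huu hus
    obtain ⟨s', hs'_def⟩ : ∃ s', s' = x * s * x⁻¹ := ⟨_, rfl⟩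
    have hs'W : s' ∈ W₂ := by rw [hs'_def]; exact m12.W s hs
    have hs'Q : s' ∈ Q₂ := b2.W_le_Q hs'W
    have hs'T : s' ∈ T := b2.Q_le_T hs'Q
    have hs's' : s' * s' = 1 := b2.Q_sq s' hs'Q
    have hs'inv : s'⁻¹ = s' := inv_eq_of_mul_eq_one_left hs's'
    have hcs1 : s * c₁ = c₁ * s := b1.c_central s (b1.T_le_P hsT)
    have hxs' : x * s' * x⁻¹ = s * w := by
      rw [← k2, hs'_def]
      calc x * (x * s * x⁻¹) * x⁻¹ = (x * x) * s * (x * x)⁻¹ := by group
        _ = (u * c₁) * s * (u * c₁)⁻¹ := by rw [e1]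
        _ = u * (c₁ * s * c₁⁻¹) * u⁻¹ := by group
        _ = u * s * u⁻¹ := by rw [← hcs1]; group
    have hs's : s' * s ≠ s * s' := by
      intro hcomm
      have h1 : s' ∈ Q₁ := hcs s' hs'T hcomm
      have h2 : s' ∈ W₁ := t0.inter_Q₁ s' (Subgroup.mem_sup_right hs'W) h1
      rcases hw.inter_W s' h2 hs'W with h3 | h3
      · apply hs1; rw [hs'_def] at h3; exact conj_eq_one_iff.mp h3
      · apply hsw
        rw [hs'_def, ← hxw] at h3
        exact mul_left_cancel (mul_right_cancel h3)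
    obtain ⟨p, hp_def⟩ : ∃ p, p = s * s' := ⟨_, rfl⟩
    have hpT : p ∈ T := by rw [hp_def]; exact T.mul_mem hsT hs'T
    have hpT0 : p ∈ W₁ ⊔ W₂ := by
      rw [hp_def]
      exact (W₁ ⊔ W₂).mul_mem (Subgroup.mem_sup_left hs) (Subgroup.mem_sup_right hs'W)
    have hpinv : p⁻¹ = s' * s := by rw [hp_def, mul_inv_rev, hsinv, hs'inv]
    have hpp : p * p = w := by
      rcases hw.sq p hpT with h1 | h1
      · exfalso; apply hs's
        have h2 : p⁻¹ = p := inv_eq_of_mul_eq_one_left h1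
        rw [hpinv] at h2
        rw [h2, hp_def]
      · exact h1
    have hcs' := cen2 s' hs'Q ⟨s, hsT, fun hh => hs's hh.symm⟩
    have hus' : u * s' ≠ s' * u := fun hcomm => huQ2 (hcs' u huT hcomm)
    have k2' : u * s' * u⁻¹ = s' * w := conj_eq_mul_w hw.sq hw.w_sq hs'T huT hs's' huu hus'
    have hup : u * p * u⁻¹ = p := by
      rw [hp_def]
      calc u * (s * s') * u⁻¹ = (u * s * u⁻¹) * (u * s' * u⁻¹) := by group
        _ = (s * w) * (s' * w) := by rw [k2, k2']
        _ = s * (w * s') * w := by group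
        _ = s * (s' * w) * w := by rw [(hw.w_cent s' hs'T).symm]
        _ = s * s' * (w * w) := by group
        _ = s * s' := by rw [hw.w_sq, mul_one]
    have hupc : u * p = p * u := by
      calc u * p = (u * p * u⁻¹) * u := by group
        _ = p * u := by rw [hup]
    have hupc' : u⁻¹ * p = p * u⁻¹ := by
      calc u⁻¹ * p = u⁻¹ * (p * u) * u⁻¹ := by group
        _ = u⁻¹ * (u * p) * u⁻¹ := by rw [hupc]
        _ = p * u⁻¹ := by group
    obtain ⟨v, hv_def⟩ : ∃ v, v = p * u⁻¹ := ⟨_, rfl⟩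
    have hvT0 : v ∈ W₁ ⊔ W₂ := by
      rw [hv_def]; exact (W₁ ⊔ W₂).mul_mem hpT0 ((W₁ ⊔ W₂).inv_mem hu0)
    have hvT : v ∈ T := t0.le hvT0
    have hvv : v * v = 1 := by
      rw [hv_def]
      calc p * u⁻¹ * (p * u⁻¹) = p * (u⁻¹ * p) * u⁻¹ := by group
        _ = p * (p * u⁻¹) * u⁻¹ := by rw [hupc']
        _ = (p * p) * (u * u)⁻¹ := by group
        _ = 1 := by rw [hpp, huu, mul_inv_cancel]
    have hvu : u * v = v * u := by
      rw [hv_def]
      calc u * (p * u⁻¹) = (u * p) * u⁻¹ := by group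
        _ = (p * u) * u⁻¹ := by rw [hupc]
        _ = p * u⁻¹ * u := by group
    have hv_cases : v = 1 ∨ v = w := by
      have hcentral : ∀ t ∈ T, t * v = v * t := by
        by_contra hcon3
        push_neg at hcon3
        obtain ⟨t, ht, hne⟩ := hcon3
        rcases inv.invol v hvT hvv with hq | hq
        · exact huQ1 (cen1 v hq ⟨t, ht, hne⟩ u huT hvu)
        · exact huQ2 (cen2 v hq ⟨t, ht, hne⟩ u huT hvu)
      rcases hw.center v hvT hcentral with h1 | h1 | h1 | h1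
      · exact Or.inl h1
      · exact Or.inr h1
      · exact absurd (h1 ▸ hvT0) t0.c₁_not
      · exact absurd (h1 ▸ hvT0) t0.c₂_not
    have hpw : p⁻¹ = p * w := by
      have h1 : p * (p * w) = 1 := by
        calc p * (p * w) = (p * p) * w := by group
          _ = 1 := by rw [hpp, hw.w_sq]
      exact inv_eq_of_mul_eq_one_right h1
    have hxp : x * p * x⁻¹ = p := by
      calc x * p * x⁻¹ = x * (s * s') * x⁻¹ := by rw [hp_def]
        _ = (x * s * x⁻¹) * (x * s' * x⁻¹) := by group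
        _ = s' * (s * w) := by rw [← hs'_def, hxs']
        _ = (s' * s) * w := by group
        _ = p⁻¹ * w := by rw [hpinv]
        _ = p := by rw [hpw, mul_assoc, hw.w_sq, mul_one]
    rcases hv_cases with h1 | h1
    · have hpu : p = u := by
        rw [hv_def] at h1
        exact mul_inv_eq_one.mp h1
      rw [hpu, hxu] at hxp
      apply hw.w_ne
      have h4 : u * w = u * 1 := by rw [hxp, mul_one]
      exact mul_left_cancel h4
    · have hpu : p = w * u := by
        rw [hv_def] at h1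
        exact mul_inv_eq_iff_eq_mul.mp h1
      rw [hpu] at hxp
      have h2 : x * (w * u) * x⁻¹ = w * (u * w) := by
        calc x * (w * u) * x⁻¹ = (x * w * x⁻¹) * (x * u * x⁻¹) := by group
          _ = w * (u * w) := by rw [hxw, hxu]
      rw [h2] at hxp
      have h3 : u * w = u := mul_left_cancel hxp
      apply hw.w_ne
      have h4 : u * w = u * 1 := by rw [h3, mul_one]
      exact mul_left_cancel h4

end Cfsg.Agent.Lib.Helper23.KS
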